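import Mathlib
import Cfsg.Agent.Lib.Helper85.USim.Defs

/-!
# USIM (S5982), package [8] `pChar`

The characteristic polynomial of an element of order `r` conjugate into the similarity group of
the standard hermitian form is twisted self-reciprocal.
-/

set_option autoImplicit false
open scoped MatrixGroups

namespace Cfsg.Agent.Lib.Helper15.USim

open Cfsg.Agent.Lib.Helper85.USim Polynomial

universe u

/-- If `Z * W = τ • 1` with `τ ≠ 0` then also `W * Z = τ • 1`. -/
theorem mul_comm_of_mul_eq_smul_one {F : Type*} [Field F] {n : ℕ}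
    (Z W : Matrix (Fin n) (Fin n) F) (τ : F) (hτ : τ ≠ 0)
    (h : Z * W = τ • (1 : Matrix (Fin n) (Fin n) F)) :
    W * Z = τ • (1 : Matrix (Fin n) (Fin n) F) := by
  have h1 : Z * (τ⁻¹ • W) = 1 := by
    rw [Matrix.mul_smul, h, smul_smul, inv_mul_cancel₀ hτ, one_smul]
  have h2 : (τ⁻¹ • W) * Z = 1 := mul_eq_one_comm.mp h1
  have h3 : τ • ((τ⁻¹ • W) * Z) = τ • (1 : Matrix (Fin n) (Fin n) F) := by rw [h2]
  rw [Matrix.smul_mul, smul_smul, mul_inv_cancel₀ hτ, one_smul] at h3
  exact h3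

/-- The characteristic polynomial of `(Yᵀ)⁻¹` when `det Y = 1`. -/
theorem charpoly_inv_transpose {F : Type*} [Field F] {n : ℕ}
    (Y : Matrix (Fin n) (Fin n) F) (hdet : Y.det = 1) :
    (Y.transpose)⁻¹.charpoly = C ((-1 : F) ^ n) * Y.charpoly.reverse := by
  have hu : IsUnit Y.transpose := by
    rw [Matrix.isUnit_iff_isUnit_det, Matrix.det_transpose, hdet]; exact isUnit_one
  rw [Matrix.charpoly_inv _ hu, Matrix.det_transpose, hdet, Ring.inverse_one, C_1, mul_one,
    ← Matrix.reverse_charpoly, Matrix.charpoly_transpose, Fintype.card_fin]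
  simp

theorem pChar (hmem : PMem.{u}) : PChar.{u} := by
  intro F _ _ q₀ n r hF hroot σ hσ x g hxr hdet hy
  rcases Nat.eq_zero_or_pos n with hn | hn
  · subst hn
    have h1 : ∀ M : Matrix (Fin 0) (Fin 0) F, M.charpoly = 1 := fun M => by
      simp [Matrix.charpoly]
    have h2 : (1 : F[X]).reverse = 1 := by
      rw [← C_1, reverse_C]
    rw [h1, h2]; simp
  obtain ⟨τ, hτ, hτeq⟩ := (hmem q₀ n hF (g⁻¹ * x * g)).mp hy
  set Y : Matrix (Fin n) (Fin n) F := ((g⁻¹ * x * g : GL (Fin n) F) : Matrix (Fin n) (Fin n) F)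
    with hYdef
  have hYσ : Y.map (fun a => a ^ q₀) = σ.mapMatrix Y := by
    rw [RingHom.mapMatrix_apply]
    congr 1
    funext a; exact (hσ a).symm
  rw [hYσ] at hτeq
  -- `Y = g⁻¹ X g`
  have hYconj : Y = ((g : GL (Fin n) F) : Matrix (Fin n) (Fin n) F)⁻¹ *
      (x : Matrix (Fin n) (Fin n) F) * (g : Matrix (Fin n) (Fin n) F) := by
    rw [hYdef]
    simp only [Matrix.GeneralLinearGroup.coe_mul, Matrix.coe_units_inv]
  have hYchar : Y.charpoly = (x : Matrix (Fin n) (Fin n) F).charpoly := by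
    rw [hYconj]; exact Matrix.charpoly_units_conj' g _
  have hYdet : Y.det = 1 := by
    rw [hYconj, Matrix.det_mul, Matrix.det_mul, mul_right_comm, ← Matrix.det_mul,
      Matrix.nonsing_inv_mul _ ((Matrix.isUnit_iff_isUnit_det _).mp g.isUnit), Matrix.det_one,
      one_mul, hdet]
  -- `Y ^ r = 1`
  have hxr' : x ^ r = 1 := by
    apply Units.ext
    rw [Units.val_pow_eq_pow_val]; exact hxr
  have hYr : Y ^ r = 1 := by
    have h1 : (g⁻¹ * x * g) ^ r = 1 := by
      have := conj_pow (a := g⁻¹) (b := x) (i := r)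
      rw [inv_inv] at this
      rw [this, hxr']; simp
    have h2 := congrArg (fun t : GL (Fin n) F => (t : Matrix (Fin n) (Fin n) F)) h1
    simpa [hYdef] using h2
  -- `τ = 1`
  have hτ1 : τ = 1 := by
    apply hroot
    have hcomm : Commute Y.transpose (σ.mapMatrix Y) := by
      change Y.transpose * σ.mapMatrix Y = σ.mapMatrix Y * Y.transpose
      rw [hτeq, mul_comm_of_mul_eq_smul_one _ _ τ hτ hτeq]
    have h1 : (Y.transpose * σ.mapMatrix Y) ^ r = 1 := by
      rw [hcomm.mul_pow, ← Matrix.transpose_pow, ← map_pow, hYr, Matrix.transpose_one, map_one,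
        one_mul]
    rw [hτeq, _root_.smul_pow, one_pow] at h1
    have h2 := congrFun (congrFun h1 ⟨0, hn⟩) ⟨0, hn⟩
    simpa [Matrix.smul_apply] using h2
  rw [hτ1, one_smul] at hτeq
  have hinv : (Y.transpose)⁻¹ = σ.mapMatrix Y := Matrix.inv_eq_right_inv hτeq
  rw [← hYchar, ← Matrix.charpoly_map, ← RingHom.mapMatrix_apply, ← hinv,
    charpoly_inv_transpose Y hYdet]

end Cfsg.Agent.Lib.Helper15.USim
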